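import Cfsg.Agent.Geom.Simple

/-! An elementary abelian group of order eight with a Singer cycle does not act projectively in small dimension. -/

set_option autoImplicit false
set_option linter.unusedSectionVars false

namespace CF.Ua
open Subgroup

namespace Bo

/-- the sign sequence of a joint eigenvector -/
def sg (u v : ℤˣ) : ℕ → ℤˣ
  | 0 => -1
  | 1 => u
  | 2 => v
  | n + 3 => sg u v n * sg u v (n + 1)

theorem sg_orth : ∀ (u v : ℤˣ) (i j : Fin 7), (1 + (sg u v i * sg u v j : ℤ)) * ((1 + (sg u v (1 + i) * sg u v (1 + j) : ℤ)) *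
    (1 + (sg u v (2 + i) * sg u v (2 + j) : ℤ))) = if i = j then 8 else 0 := by decide

variable {k V : Type*} [Field k] [AddCommGroup V] [Module k V]

theorem eig {b : Module.End k V} (bb : b * b = 1) {W : Set (Module.End k V × ℤ)}
    (c : ∀ w ∈ W, w.1 * b = b * w.1) {v : V} (v0 : v ≠ 0) (e : ∀ w ∈ W, w.1 v = w.2 • v) :
    ∃ (u : ℤˣ) (x : V), x ≠ 0 ∧ b x = (u : ℤ) • x ∧ ∀ w ∈ W, w.1 x = w.2 • x := by
  by_cases h : v + b v = 0
  · exact ⟨-1, v, v0, by rw [eq_neg_of_add_eq_zero_right h]; simp, e⟩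
  · exact ⟨1, _, h, by rw [map_add, ← Module.End.mul_apply, bb]; simp [add_comm], fun w hw => by
      rw [map_add, ← Module.End.mul_apply w.1, c w hw, Module.End.mul_apply, e w hw, map_zsmul, smul_add]⟩

theorem core [FiniteDimensional k V] (c2 : (2 : k) ≠ 0) (d : Module.finrank k V < 7) (b : ℕ → Module.End k V)
    (T : Module.End k V) (i : Function.Injective T) (t : ∀ n, b n * T = T * b (n + 1)) (bb : ∀ n, b n * b n = 1)
    (c1 : b 0 * b 1 = b 1 * b 0) (c2' : b 0 * b 2 = b 2 * b 0) (c3 : b 1 * b 2 = b 2 * b 1)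
    (r : ∀ n, b (n + 3) = b n * b (n + 1)) : b 0 = 1 := by
  by_contra ne
  obtain ⟨w, hw⟩ : ∃ w, w - b 0 w ≠ 0 := by
    by_contra h
    push Not at h
    exact ne (LinearMap.ext fun w => (sub_eq_zero.1 (h w)).symm)
  have e0 : b 0 (w - b 0 w) = (-1 : ℤ) • (w - b 0 w) := by
    rw [map_sub, ← Module.End.mul_apply, bb]; simp
  obtain ⟨u, x, x0, e1, e0⟩ := eig (bb 1) (W := {(b 0, -1)}) (by simpa using c1) hw (by simpa using e0)
  obtain ⟨v, y, y0, e2, e⟩ := eig (bb 2) (W := {(b 0, -1), (b 1, ↑u)}) (by simpa using ⟨c2', c3⟩) x0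
    (by simpa using ⟨by simpa using e0 _ rfl, e1⟩)
  replace e0 : b 0 y = (-1 : ℤ) • y := e _ (.inl rfl)
  replace e1 : b 1 y = (u : ℤ) • y := e _ (.inr rfl)
  have s : ∀ n, b n y = (sg u v n : ℤ) • y := fun n => by
    induction n using Nat.strong_induction_on with
    | _ n ih =>
      match n with
      | 0 => exact e0
      | 1 => exact e1
      | 2 => exact e2
      | n + 3 =>
        rw [r, Module.End.mul_apply, ih _ (by omega), map_zsmul, ih _ (by omega), smul_smul, sg, Units.val_mul,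
          mul_comm]
  have tp : ∀ j n, b n * T ^ j = T ^ j * b (n + j) := fun j => by
    induction j with
    | zero => simp
    | succ j ih => intro n; rw [pow_succ, ← mul_assoc, ih, mul_assoc, t, mul_assoc, add_assoc]
  have sj : ∀ n j, b n ((T ^ j) y) = (sg u v (n + j) : ℤ) • (T ^ j) y := fun n j => by
    rw [← Module.End.mul_apply, tp, Module.End.mul_apply, s, map_zsmul]
  have li : LinearIndependent k fun j : Fin 7 => (T ^ (j : ℕ)) y := by
    refine Fintype.linearIndependent_iff.2 fun g hg i' => ?_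
    have := congrArg ((1 + (sg u v i' : ℤ) • b 0) * ((1 + (sg u v (1 + i') : ℤ) • b 1) *
      (1 + (sg u v (2 + i') : ℤ) • b 2)) : Module.End k V) hg
    have p : ∀ (n : ℕ) (c : ℤ) (j : ℕ), (1 + c • b n) ((T ^ j) y) = (1 + c * sg u v (n + j)) • (T ^ j) y := fun n c j => by
      rw [LinearMap.add_apply, LinearMap.smul_apply, sj, smul_smul, add_smul, one_smul, Module.End.one_apply]
    simp only [map_sum, map_smul, map_zero, Module.End.mul_apply, p, map_zsmul, smul_smul, zero_add] at this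
    have q : ∀ j : Fin 7, (1 + (sg u v (2 + i') : ℤ) * sg u v (2 + j)) * (1 + (sg u v (1 + i') : ℤ) * sg u v (1 + j)) *
        (1 + (sg u v i' : ℤ) * sg u v j) = if i' = j then 8 else 0 := fun j => by
      rw [← sg_orth u v i' j]; ring
    simp only [q, ite_smul, zero_smul, smul_ite, smul_zero, Finset.sum_ite_eq, Finset.mem_univ, if_true] at this
    have y1 : (T ^ (i' : ℕ)) y ≠ 0 := fun e => y0 ((Module.End.coe_pow T i' ▸ i.iterate i' : Function.Injective (T ^ (i' : ℕ)))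
      (by rw [e, map_zero]))
    have h8 : ((8 : ℤ) : k) ≠ 0 := by
      rw [show ((8 : ℤ) : k) = 2 ^ 3 by norm_num]; exact pow_ne_zero _ c2
    rw [← Int.cast_smul_eq_zsmul k, smul_smul, smul_eq_zero] at this
    exact (mul_eq_zero.1 (this.resolve_right y1)).resolve_right h8
  have := li.fintype_card_le_finrank
  rw [Fintype.card_fin] at this
  omega

/-- an elementary abelian group of order eight with a Singer cycle -/
def H87 (S : Type*) [Group S] : Prop := ∃ a θ : S, a ≠ 1 ∧ a * a = 1 ∧ Commute a (θ * a * θ⁻¹) ∧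
  Commute a (θ ^ 2 * a * (θ ^ 2)⁻¹) ∧ θ ^ 3 * a * (θ ^ 3)⁻¹ = a * (θ * a * θ⁻¹)

theorem H87.map {S S' : Type*} [Group S] [Group S'] (h : H87 S) (e : S ≃* S') : H87 S' := by
  obtain ⟨a, θ, h1, h2, h3, h4, h5⟩ := h
  exact ⟨e a, e θ, by simpa using h1, by rw [← map_mul, h2, map_one], by simpa using h3.map e,
    by simpa using h4.map e, by simpa using congrArg e h5⟩

theorem gen {Γ S : Type*} [Group Γ] [Group S] [FiniteDimensional k V] (c2 : (2 : k) ≠ 0) (d : Module.finrank k V < 7)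
    (φ : Γ →* Module.End k V) (π : Γ →* S) (s : Function.Surjective π)
    (ker : ∀ x, π x = 1 ↔ ∃ c : k, φ x = c • (1 : Module.End k V)) : ¬ H87 S := by
  rintro ⟨a, θ, a1, aa, c1, c2', c3⟩
  obtain ⟨a, rfl⟩ := s a
  obtain ⟨θ, rfl⟩ := s θ
  have n1 : (1 : Module.End k V) ≠ 0 := fun e => a1 ((ker a).2 ⟨0, by rw [← mul_one (φ a), e, mul_zero, zero_smul]⟩)
  have n0 : ∀ g, φ g ≠ 0 := fun g e => n1 (by rw [← map_one φ, ← mul_inv_cancel g, map_mul, e, zero_mul])
  have can : ∀ g (c c' : k), c • φ g = c' • φ g → c = c' := fun g c c' e => smul_left_injective k (n0 g) e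
  let A : ℕ → Γ := fun n => θ ^ n * a * (θ ^ n)⁻¹
  have sc : ∀ g h, π g = π h → ∃ c : k, c ≠ 0 ∧ ∀ n : ℕ, φ (θ ^ n * g * (θ ^ n)⁻¹) = c • φ (θ ^ n * h * (θ ^ n)⁻¹) :=
    fun g h e => by
      obtain ⟨c, hc⟩ := (ker (g * h⁻¹)).1 (by rw [map_mul, map_inv, e, mul_inv_cancel])
      refine ⟨c, fun z => n0 _ (by rw [hc, z, zero_smul]), fun n => ?_⟩
      have e : φ g = c • φ h := by rw [show g = g * h⁻¹ * h by group, map_mul, hc, smul_mul_assoc, one_mul]
      simp only [map_mul φ, e, smul_mul_assoc, mul_smul_comm]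
  have cj : ∀ n i j, φ (θ ^ n * (A i * A j) * (θ ^ n)⁻¹) = φ (A (n + i)) * φ (A (n + j)) := fun n i j => by
    rw [← map_mul]; congr 1; simp only [A, pow_add]; group
  obtain ⟨μ, μ0, h1⟩ := sc (A 0 * A 0) 1 (by simpa [A] using aa)
  obtain ⟨x, -, h2⟩ := sc (A 0 * A 1) (A 1 * A 0) (by simpa [A] using c1.eq)
  obtain ⟨y, -, h3⟩ := sc (A 0 * A 2) (A 2 * A 0) (by simpa [A] using c2'.eq)
  obtain ⟨l, l0, h4⟩ := sc (A 3) (A 0 * A 1) (by simpa [A] using c3)
  simp only [cj, mul_one, mul_inv_cancel, map_one, add_zero] at h1 h2 h3 h4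
  replace h4 : ∀ n, φ (A (n + 3)) = l • (φ (A n) * φ (A (n + 1))) := fun n => by
    rw [← h4]; congr 1; simp only [A, pow_add]; group
  have p01 : φ (A 0) * φ (A 1) = x • (φ (A 1) * φ (A 0)) := h2 0
  have p12 : φ (A 1) * φ (A 2) = x • (φ (A 2) * φ (A 1)) := h2 1
  have p02 : φ (A 0) * φ (A 2) = y • (φ (A 2) * φ (A 0)) := h3 0
  have p3 : φ (A 3) = l • (φ (A 0) * φ (A 1)) := h4 0
  have xy : x * y = 1 := by
    have e : φ (A 1) * φ (A 3) = y • (φ (A 3) * φ (A 1)) := h3 1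
    rw [p3, mul_smul_comm, smul_mul_assoc, ← mul_assoc, show φ (A 0) * φ (A 1) * φ (A 1) = _ by rw [p01],
      smul_mul_assoc, smul_smul, smul_smul, ← map_mul, ← map_mul] at e
    exact mul_left_cancel₀ l0 (by linear_combination -can _ _ _ e)
  have x1 : x = 1 := by
    have e : φ (A 2) * φ (A 3) = x • (φ (A 3) * φ (A 2)) := h2 2
    rw [p3, mul_smul_comm, smul_mul_assoc, mul_assoc, p12, mul_smul_comm, ← mul_assoc (φ (A 0)), p02, smul_mul_assoc,
      smul_smul, smul_smul, smul_smul, ← mul_assoc, ← map_mul, ← map_mul] at e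
    exact mul_left_cancel₀ l0 (by linear_combination -can _ _ _ e - x * l * xy)
  have y1 : y = 1 := by rw [← xy, x1, one_mul]
  subst x1 y1
  simp only [one_smul] at p01 p12 p02
  have lm : l * l * μ = 1 := by
    have e := h1 3
    rw [p3, smul_mul_smul_comm, mul_assoc, ← mul_assoc (φ (A 1)), ← p01, mul_assoc, h1 1, ← mul_assoc, h1 0,
      smul_mul_smul_comm, smul_smul, mul_one, ← map_one φ] at e
    exact mul_right_cancel₀ μ0 (by linear_combination can _ _ _ e)
  have := core c2 d (fun n => l • φ (A n)) (φ θ⁻¹)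
    (Function.LeftInverse.injective (g := φ θ) fun v => by
      rw [← Module.End.mul_apply, ← map_mul, mul_inv_cancel, map_one, Module.End.one_apply])
    (fun n => by
      rw [smul_mul_assoc, mul_smul_comm, ← map_mul, ← map_mul]; congr 2; simp only [A, pow_succ']; group)
    (fun n => by rw [smul_mul_smul_comm, h1, smul_smul, lm, one_smul])
    (by rw [smul_mul_smul_comm, smul_mul_smul_comm, p01]) (by rw [smul_mul_smul_comm, smul_mul_smul_comm, p02])
    (by rw [smul_mul_smul_comm, smul_mul_smul_comm, p12]) (fun n => by rw [h4, smul_mul_smul_comm, smul_smul])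
  refine a1 ((ker a).2 ⟨l⁻¹, ?_⟩)
  rw [← this, smul_smul, inv_mul_cancel₀ l0, one_smul]
  simp [A]

theorem mat {Γ S ι : Type*} [Group Γ] [Group S] [Fintype ι] [DecidableEq ι] (c2 : (2 : k) ≠ 0) (d : Fintype.card ι < 7)
    (φ : Γ →* Matrix ι ι k) (π : Γ →* S) (s : Function.Surjective π)
    (ker : ∀ x, π x = 1 ↔ ∃ c : k, φ x = Matrix.scalar _ c) : ¬ H87 S :=
  gen (V := ι → k) c2 (by rwa [Module.finrank_fintype_fun_eq_card])
    ((Matrix.toLinAlgEquiv' (R := k) (n := ι) : Matrix ι ι k →* Module.End k (ι → k)).comp φ) π s fun x =>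
    (ker x).trans (exists_congr fun c => by
      rw [← (Matrix.toLinAlgEquiv' (R := k) (n := ι)).injective.eq_iff, Matrix.scalar_apply, ← Matrix.smul_one_eq_diagonal,
        map_smul, map_one]; rfl)

theorem cen {Γ ι : Type*} [Group Γ] [Fintype ι] [DecidableEq ι] (c2 : (2 : k) ≠ 0) (d : Fintype.card ι < 7)
    (φ : Γ →* Matrix ι ι k) (i : Function.Injective φ)
    (z : ∀ x ∈ center Γ, ∃ c : k, ∀ v, (φ x).mulVec v = c • v) : ¬ H87 (Γ ⧸ center Γ) :=
  mat c2 d φ (QuotientGroup.mk' _) (QuotientGroup.mk'_surjective _) fun x => by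
    rw [← MonoidHom.mem_ker, QuotientGroup.ker_mk']
    refine ⟨fun h => (z x h).imp fun c hc => ?_, fun ⟨c, hc⟩ => mem_center_iff.2 fun g => i ?_⟩
    · exact Matrix.toLin'.injective (LinearMap.ext fun v => by simp [hc])
    · rw [map_mul, map_mul, hc]; exact ((Matrix.scalar_commute c (fun _ => Commute.all _ _) _).eq).symm

theorem psl {F : Type*} [Field F] (c2 : (2 : F) ≠ 0) : ¬ H87 (Matrix.ProjectiveSpecialLinearGroup (Fin 4) F) :=
  cen c2 (by decide) (Cfsg.slToMat 4 F) Subtype.val_injective fun x hx => by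
    obtain ⟨c, -, e⟩ := Matrix.SpecialLinearGroup.mem_center_iff.1 hx
    exact ⟨c, fun v => by rw [show Cfsg.slToMat 4 F x = Matrix.scalar _ c from e.symm]; simp⟩

theorem psp {F : Type*} [Field F] (c2 : (2 : F) ≠ 0) : ¬ H87 (Cfsg.PSp 2 F) :=
  cen c2 (by decide) (Cfsg.spToMat 2 F) Subtype.val_injective
    (Geom.center_sp_scalar (Geom.sympBilin_nondegenerate 2) (Geom.sympBilin_isAlt 2)
      (ρ := (Geom.spEquiv 2 F).toMonoidHom) (MonoidHom.range_eq_top.2 (Geom.spEquiv 2 F).surjective))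

theorem psu {F : Type*} [Field F] [Fintype F] {q : ℕ} (hF : Fintype.card F = q ^ 2) (c2 : (2 : F) ≠ 0) :
    ¬ H87 (Cfsg.PSU 4 F q) := by
  obtain ⟨σ, h1, h2, h3⟩ := Geom.exists_conj hF
  exact cen c2 (by decide) ((Cfsg.slToMat 4 F).comp (Cfsg.SU 4 F q).subtype)
    (Subtype.val_injective.comp Subtype.val_injective)
    (Geom.center_su_scalar (Geom.isHerm_hermSesq h2 h3) (Geom.hermSesq_nondegenerate σ) (by simp)
      (Geom.suToUG_range 4 h1).ge)

end Bo

theorem e87 {Γ S : Type*} [Group Γ] [Group S] {k : Type*} [Field k] (c2 : (2 : k) ≠ 0)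
    (φ : Γ →* Matrix.GeneralLinearGroup (Fin 4) k) (π : Γ →* S) (s : Function.Surjective π)
    (ker : ∀ x, π x = 1 ↔ ∃ c : k, (φ x : Matrix (Fin 4) (Fin 4) k) = Matrix.scalar _ c) {a θ : S} (a1 : a ≠ 1)
    (aa : a * a = 1) (c1 : Commute a (θ * a * θ⁻¹)) (c2' : Commute a (θ ^ 2 * a * (θ ^ 2)⁻¹))
    (c3 : θ ^ 3 * a * (θ ^ 3)⁻¹ = a * (θ * a * θ⁻¹)) : False :=
  Bo.mat c2 (by decide) ((Units.coeHom _).comp φ) π s ker ⟨a, θ, a1, aa, c1, c2', c3⟩

end CF.Ua
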